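import Cfsg.Agent.Lib.Helper50.FCL.Base

set_option autoImplicit false

namespace Cfsg.Agent.Lib.Helper50.FCL

open Finset

/-- [FPF] right translation is fixed-point-free on the solution space when the primes dividing |G| are invertible.
PROOF. h ≠ 1 ⇒ orderOf h ≠ 1; ℓ := a prime factor of orderOf h, h' := h ^ (orderOf h / ℓ) has order ℓ (`orderOf_pow_orderOf_div`);
w fixed by h ⇒ w.1 (x * h) = w.1 x ∀ x ⇒ w.1 (x * h'^i) = w.1 x (induction).  For x : G put g := x * h' * x⁻¹ (order ℓ: `orderOf_conj`../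
`MulAut.conj` `orderOf_injective`), g^i * x = x * h'^i (`conj_pow`).  IsSol: 0 = ∑_{i<ℓ} w.1 (g^i * x) = ℓ • w.1 x, and (ℓ : K) ≠ 0
(ℓ ∣ orderOf h ∣ card G). -/
theorem solRep_fpf {K G : Type*} [Field K] [Group G] [Finite G]
    (hK : ∀ ℓ : ℕ, ℓ.Prime → ℓ ∣ Nat.card G → (ℓ : K) ≠ 0)
    (h : G) (hh : h ≠ 1) (w : solSpace K G) (hw : solRep K G h w = w) : w = 0 := by
  have ho1 : orderOf h ≠ 1 := fun h1 => hh (orderOf_eq_one_iff.1 h1)
  obtain ⟨ℓ, hℓ, hdvd⟩ := Nat.exists_prime_and_dvd ho1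
  have ho0 : orderOf h ≠ 0 := (orderOf_pos h).ne'
  have hord : orderOf (h ^ (orderOf h / ℓ)) = ℓ := orderOf_pow_orderOf_div ho0 hdvd
  have hfix : ∀ x : G, w.1 (x * h) = w.1 x := by
    intro x
    have := congrArg (fun v : solSpace K G => v.1 x) hw
    simpa using this
  have hfixn : ∀ (n : ℕ) (x : G), w.1 (x * h ^ n) = w.1 x := by
    intro n
    induction n with
    | zero => intro x; simp
    | succ n ih =>
      intro x
      rw [pow_succ, ← mul_assoc, hfix, ih]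
  apply Subtype.ext
  funext x
  set h' := h ^ (orderOf h / ℓ) with hh'
  have hg : orderOf (x * h' * x⁻¹) = ℓ := by
    have : x * h' * x⁻¹ = MulAut.conj x h' := rfl
    rw [this, MulEquiv.orderOf_eq, hord]
  have hsol := w.2 (x * h' * x⁻¹) (by rw [hg]; exact hℓ) x
  rw [hg] at hsol
  have hterm : ∀ i ∈ range ℓ, w.1 ((x * h' * x⁻¹) ^ i * x) = w.1 x := by
    intro i _
    rw [conj_pow, inv_mul_cancel_right, hh', ← pow_mul, hfixn]
  rw [sum_congr rfl hterm, sum_const, card_range, nsmul_eq_mul] at hsol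
  have hℓK : (ℓ : K) ≠ 0 := hK ℓ hℓ (hdvd.trans (orderOf_dvd_natCard h))
  exact (mul_eq_zero.1 hsol).resolve_left hℓK

end Cfsg.Agent.Lib.Helper50.FCL
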