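import Cfsg.Agent.Lib.Helper50.FCL.Base
import Cfsg.Agent.Lib.Helper50.FCL.FPF
import Cfsg.Agent.Lib.Helper56.FrobComplement

set_option autoImplicit false

namespace Cfsg.Agent.Lib.Helper50.FCL

open Finset

/-- [FROB] a nonzero solution modulo a prime `r ∤ |G|` makes `G` a Frobenius complement.
PROOF. import Cfsg.Agent.Lib.Helper56.FrobComplement, import ...FCL.FPF.  haveI : Fact r.Prime.  V := solSpace (ZMod r) G: finite (subtype of G → ZMod r), nontrivial (⟨w,hw⟩ ≠ 0).
φ : G →* MulAut (Multiplicative V) from `solRep` (inverse = solRep g⁻¹), or a `DistribMulAction G V` (`g • v := solRep _ _ g v`) and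
`Helper56.exists_frobenius_of_fpf_add`.  fpf by [FPF]; hK: a prime ℓ ∣ card G with (ℓ : ZMod r) = 0 gives r ∣ ℓ (`ZMod.natCast_eq_zero_iff`), r = ℓ ∣ card G, contra. -/
theorem isFC_of_sol {G : Type*} [Group G] [Finite G] [Nontrivial G] (r : ℕ) (hr : r.Prime)
    (hrG : ¬ r ∣ Nat.card G) (w : G → ZMod r) (hw : IsSol w) (h0 : w ≠ 0) : IsFC G := by
  haveI : Fact r.Prime := ⟨hr⟩
  letI : DistribMulAction G (solSpace (ZMod r) G) :=
    { smul := fun g v => solRep (ZMod r) G g v
      one_smul := by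
        intro v
        show solRep (ZMod r) G 1 v = v
        rw [map_one]; rfl
      mul_smul := by
        intro a b v
        show solRep (ZMod r) G (a * b) v = solRep (ZMod r) G a (solRep (ZMod r) G b v)
        rw [map_mul]; rfl
      smul_zero := fun g => map_zero (solRep (ZMod r) G g)
      smul_add := fun g a b => map_add (solRep (ZMod r) G g) a b }
  haveI : Nontrivial (solSpace (ZMod r) G) :=
    ⟨⟨⟨w, hw⟩, 0, fun h => h0 (congrArg Subtype.val h)⟩⟩
  have hK : ∀ ℓ : ℕ, ℓ.Prime → ℓ ∣ Nat.card G → (ℓ : ZMod r) ≠ 0 := by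
    intro ℓ hℓ hd h
    rw [ZMod.natCast_eq_zero_iff] at h
    have : r = ℓ := (Nat.prime_dvd_prime_iff_eq hr hℓ).1 h
    exact hrG (this ▸ hd)
  exact Cfsg.Agent.Lib.Helper56.exists_frobenius_of_fpf_add
    (V := solSpace (ZMod r) G) (H := G) (fun h hh v hv => solRep_fpf hK h hh v hv)

end Cfsg.Agent.Lib.Helper50.FCL
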