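import Cfsg.Agent.Lib.Helper50.FCL.Base

set_option autoImplicit false

namespace Cfsg.Agent.Lib.Helper50.FCL

open Finset

/-- [GEN] a finite-dimensional representation in matrix form. -/
theorem exists_matrix_of_rep {K G U : Type*} [Field K] [Group G] [AddCommGroup U] [Module K U]
    [FiniteDimensional K U] (R : Representation K G U) :
    ∃ (σ : G →* GL (Fin (Module.finrank K U)) K) (e : U ≃ₗ[K] (Fin (Module.finrank K U) → K)),
      ∀ (g : G) (u : U), e (R g u) =
        ((σ g : GL (Fin (Module.finrank K U)) K) : Matrix _ _ K).mulVec (e u) := by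
  classical
  let b := Module.finBasis K U
  let σ0 : G →* Matrix (Fin (Module.finrank K U)) (Fin (Module.finrank K U)) K :=
    { toFun := fun g => LinearMap.toMatrix b b (R g)
      map_one' := by simp [Module.End.one_eq_id]
      map_mul' := by intro x y; simp [LinearMap.toMatrix_mul] }
  refine ⟨σ0.toHomUnits, b.equivFun, fun g u => ?_⟩
  have h := LinearMap.toMatrix_mulVec_repr b b (R g) u
  change (b.repr (R g u) : Fin (Module.finrank K U) → K) = _
  rw [← h]
  rfl

end Cfsg.Agent.Lib.Helper50.FCL
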