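import Cfsg.Agent.Lib.Helper50.FCL.Base

set_option autoImplicit false

namespace Cfsg.Agent.Lib.Helper50.FCL

open Finset

theorem KER_exists_mul (q : ℕ) [Fact q.Prime] (k : ℕ) (a : ZMod (q ^ (k + 1)))
    (h : red q k a = 0) : ∃ b : ZMod (q ^ (k + 1)), a = (q : ZMod (q ^ (k + 1))) * b := by
  have hq : q.Prime := Fact.out
  have : NeZero (q ^ (k + 1)) := ⟨pow_ne_zero _ hq.ne_zero⟩
  have ha : ((a.val : ℕ) : ZMod (q ^ (k + 1))) = a := ZMod.natCast_zmod_val a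
  rw [← ha, map_natCast, ZMod.natCast_eq_zero_iff] at h
  obtain ⟨c, hc⟩ := h
  refine ⟨(c : ZMod (q ^ (k + 1))), ?_⟩
  rw [← ha, hc, Nat.cast_mul]

theorem KER_exists_smul (q : ℕ) [Fact q.Prime] (k d : ℕ)
    (S : Matrix (Fin d) (Fin d) (ZMod (q ^ (k + 1)))) (hS0 : S.map (red q k) = 0) :
    ∃ T : Matrix (Fin d) (Fin d) (ZMod (q ^ (k + 1))), S = (q : ZMod (q ^ (k + 1))) • T := by
  have h : ∀ i j, ∃ b : ZMod (q ^ (k + 1)), S i j = (q : ZMod (q ^ (k + 1))) * b := by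
    intro i j
    apply KER_exists_mul
    have := congrFun (congrFun hS0 i) j
    simpa using this
  choose T hT using h
  refine ⟨Matrix.of T, ?_⟩
  ext i j
  rw [hT i j]
  rfl

theorem KER_pow (q k d : ℕ) (Y : Matrix (Fin d) (Fin d) (ZMod (q ^ (k + 1)))) :
    (1 + (q : ZMod (q ^ (k + 1))) • Y) ^ (q ^ k) = 1 := by
  have h1 : ((q : ℕ) : Polynomial ℤ) ∣ (1 + (q : Polynomial ℤ) * Polynomial.X) - 1 := by
    rw [add_sub_cancel_left]
    exact dvd_mul_right _ _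
  obtain ⟨c, hc⟩ := dvd_sub_pow_of_dvd_sub h1 k
  have h2 := congrArg (Polynomial.aeval Y) hc
  simp only [map_sub, map_pow, map_add, map_one, map_mul, map_natCast, Polynomial.aeval_X] at h2
  have h3 : ((q : ℕ) : Matrix (Fin d) (Fin d) (ZMod (q ^ (k + 1)))) ^ (k + 1) = 0 := by
    rw [← Nat.cast_pow, ← nsmul_one, ← Nat.cast_smul_eq_nsmul (ZMod (q ^ (k + 1))),
      ZMod.natCast_self, zero_smul]
  rw [h3, zero_mul, one_pow, sub_eq_zero] at h2
  have h4 : ((q : ℕ) : Matrix (Fin d) (Fin d) (ZMod (q ^ (k + 1)))) * Y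
      = (q : ZMod (q ^ (k + 1))) • Y := by
    rw [Nat.cast_smul_eq_nsmul, ← nsmul_eq_mul]
  rw [h4] at h2
  exact h2

/-- [KER] the kernel of the reduction is a `q`-group.
PROOF. Let g in the kernel, X = (g : Matrix) - 1; all entries of X are killed by `red q k`, hence are multiples of
(q : ZMod (q^(k+1))) (a = (n : ZMod _), `(ZMod.natCast_eq_zero_iff n q)`: q ∣ n), so g = 1 + q • Y.
Claim g ^ (q ^ k) = 1.  In the commutative ring ℤ[T] (Polynomial ℤ): `dvd_sub_pow_of_dvd_sub` with a = 1 + q T, b = 1, p = q gives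
(q^(k+1) : ℤ[T]) ∣ (1 + q T)^(q^k) - 1; apply `Polynomial.aeval Y` (ℤ-algebra hom into the matrix ring):
(1 + q Y)^(q^k) - 1 = q^(k+1) • (..) = 0 since (q^(k+1) : ZMod (q^(k+1))) = 0 (`ZMod.natCast_self`).
`IsPGroup` := ∀ g, ∃ n, g ^ q ^ n = 1. -/
theorem isPGroup_ker_redGL (q : ℕ) [Fact q.Prime] (k d : ℕ) : IsPGroup q (redGL q k d).ker := by
  rintro ⟨g, hg⟩
  refine ⟨k, ?_⟩
  rw [MonoidHom.mem_ker] at hg
  have h1 : (g : Matrix (Fin d) (Fin d) (ZMod (q ^ (k + 1)))).map (red q k) = 1 :=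
    congrArg Units.val hg
  have h2 : ((g : Matrix (Fin d) (Fin d) (ZMod (q ^ (k + 1)))) - 1).map (red q k) = 0 := by
    have := (red q k).mapMatrix.map_sub (g : Matrix (Fin d) (Fin d) (ZMod (q ^ (k + 1)))) 1
    rw [RingHom.mapMatrix_apply, RingHom.mapMatrix_apply, h1, map_one, sub_self] at this
    exact this
  obtain ⟨Y, hY⟩ := KER_exists_smul q k d _ h2
  have h3 : (g : Matrix (Fin d) (Fin d) (ZMod (q ^ (k + 1)))) = 1 + (q : ZMod (q ^ (k + 1))) • Y := by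
    rw [← hY]; abel
  apply Subtype.ext
  apply Units.ext
  show ((g ^ q ^ k : GL (Fin d) (ZMod (q ^ (k + 1)))) : Matrix (Fin d) (Fin d) (ZMod (q ^ (k + 1)))) = 1
  rw [Units.val_pow_eq_pow_val, h3, KER_pow]

end Cfsg.Agent.Lib.Helper50.FCL
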