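import Cfsg.Agent.Lib.Helper50.FCL.Base

set_option autoImplicit false

namespace Cfsg.Agent.Lib.Helper50.FCL

open Finset

/-- [LINa1] clearing denominators. -/
theorem exists_int_of_rat {G : Type*} [Group G] [Finite G] (w : G → ℚ) (hw : IsSol w) (h0 : w ≠ 0) :
    ∃ v : G → ℤ, IsSol v ∧ v ≠ 0 := by
  classical
  haveI := Fintype.ofFinite G
  let m : ℤ := ∏ p, ((w p).den : ℤ)
  have hm : m ≠ 0 := by
    apply Finset.prod_ne_zero_iff.mpr
    intro p _
    exact_mod_cast (w p).den_ne_zero
  let n : G → ℤ := fun p => (m / ((w p).den : ℤ)) * (w p).num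
  have hn : ∀ p, ((n p : ℤ) : ℚ) = m * w p := by
    intro p
    obtain ⟨t, ht⟩ : ((w p).den : ℤ) ∣ m := Finset.dvd_prod_of_mem _ (Finset.mem_univ p)
    have hd : ((w p).den : ℤ) ≠ 0 := by exact_mod_cast (w p).den_ne_zero
    have h1 : m / ((w p).den : ℤ) = t := by rw [ht, Int.mul_ediv_cancel_left _ hd]
    have h2 : w p * ((w p).den : ℚ) = (w p).num := Rat.mul_den_eq_num _
    simp only [n]
    rw [h1, ht]
    push_cast
    rw [← h2]
    ring
  refine ⟨n, ?_, ?_⟩
  · intro g hg x
    apply Int.cast_injective (α := ℚ)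
    push_cast
    simp only [hn]
    rw [← Finset.mul_sum, hw g hg x, mul_zero]
  · intro h
    apply h0
    funext x
    have h1 := hn x
    rw [h] at h1
    simp only [Pi.zero_apply, Int.cast_zero] at h1
    have hm' : (m : ℚ) ≠ 0 := by exact_mod_cast hm
    rcases mul_eq_zero.mp h1.symm with h2 | h2
    · exact absurd h2 hm'
    · exact h2

end Cfsg.Agent.Lib.Helper50.FCL
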