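import Cfsg.Agent.Lib.Helper50.FCL.Base

set_option autoImplicit false

namespace Cfsg.Agent.Lib.Helper50.FCL

open Finset

/-- [LINa2] if the rational system has only the zero solution, the coordinate `w ↦ w 1` is a rational,
hence (after clearing denominators) an integral combination of the equations. -/
theorem exists_int_combination {G : Type*} [Group G] [Fintype G] [DecidableEq G]
    (h : ∀ w : G → ℚ, IsSol w → w = 0) :
    ∃ (m : ℤ) (n : G → G → ℤ), m ≠ 0 ∧ ∀ y : G, (if y = 1 then m else 0) =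
      ∑ g : G, ∑ x : G, n g x * (if (orderOf g).Prime then
        ∑ i ∈ range (orderOf g), (if g ^ i * x = y then (1 : ℤ) else 0) else 0) := by
  classical
  let B : (G → ℚ) →ₗ[ℚ] (G × G → ℚ) :=
    LinearMap.pi (fun p => if (orderOf p.1).Prime then
      ∑ i ∈ range (orderOf p.1), LinearMap.proj (p.1 ^ i * p.2) else 0)
  have hB : ∀ (w : G → ℚ) (g x : G), B w (g, x) =
      if (orderOf g).Prime then ∑ i ∈ range (orderOf g), w (g ^ i * x) else 0 := by
    intro w g x
    simp only [B, LinearMap.pi_apply]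
    split_ifs with hg
    · simp [LinearMap.sum_apply]
    · simp
  have hker : LinearMap.ker B = ⊥ := by
    rw [LinearMap.ker_eq_bot']
    intro w hw
    apply h
    intro g hg x
    have := congrFun hw (g, x)
    rw [hB, if_pos hg] at this
    exact this
  obtain ⟨B', hB'⟩ := B.exists_leftInverse_of_injective hker
  let φ : (G × G → ℚ) →ₗ[ℚ] ℚ := (LinearMap.proj 1).comp B'
  have hφ : ∀ w : G → ℚ, φ (B w) = w 1 := by
    intro w
    have := congrArg (fun f : (G → ℚ) →ₗ[ℚ] (G → ℚ) => f w 1) hB'
    simpa [φ] using this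
  let c : G × G → ℚ := fun p => φ (fun j => if p = j then 1 else 0)
  have hφc : ∀ z : G × G → ℚ, φ z = ∑ p, z p * c p := by
    intro z
    rw [LinearMap.pi_apply_eq_sum_univ φ z]
    rfl
  let m : ℤ := ∏ p, ((c p).den : ℤ)
  have hm : m ≠ 0 := by
    apply Finset.prod_ne_zero_iff.mpr
    intro p _
    exact_mod_cast (c p).den_ne_zero
  let n : G × G → ℤ := fun p => (m / ((c p).den : ℤ)) * (c p).num
  have hn : ∀ p, ((n p : ℤ) : ℚ) = m * c p := by
    intro p
    obtain ⟨t, ht⟩ : ((c p).den : ℤ) ∣ m := Finset.dvd_prod_of_mem _ (Finset.mem_univ p)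
    have hd : ((c p).den : ℤ) ≠ 0 := by exact_mod_cast (c p).den_ne_zero
    have h1 : m / ((c p).den : ℤ) = t := by rw [ht, Int.mul_ediv_cancel_left _ hd]
    have h2 : c p * ((c p).den : ℚ) = (c p).num := Rat.mul_den_eq_num _
    simp only [n]
    rw [h1, ht]
    push_cast
    rw [← h2]
    ring
  refine ⟨m, fun g x => n (g, x), hm, fun y => ?_⟩
  have h1 := hφ (fun z => if z = y then 1 else 0)
  rw [hφc, Fintype.sum_prod_type] at h1
  apply Int.cast_injective (α := ℚ)
  have h2 : (((if y = 1 then m else 0 : ℤ)) : ℚ) = m * (if (1 : G) = y then (1 : ℚ) else 0) := by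
    by_cases hy : y = 1
    · simp [hy]
    · simp [hy, Ne.symm hy]
  rw [h2, ← h1, Finset.mul_sum]
  push_cast
  refine Finset.sum_congr rfl fun g _ => ?_
  rw [Finset.mul_sum]
  refine Finset.sum_congr rfl fun x _ => ?_
  rw [hB, hn]
  split_ifs with hg
  · ring
  · ring

end Cfsg.Agent.Lib.Helper50.FCL
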