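import Cfsg.Agent.Lib.Helper50.FCL.Base

set_option autoImplicit false

namespace Cfsg.Agent.Lib.Helper50.FCL

open Finset

/-- [LINb] the integral combination kills `w 1` for a solution over any commutative ring. -/
theorem int_combination_apply {G R : Type*} [Group G] [Fintype G] [DecidableEq G] [CommRing R]
    (m : ℤ) (n : G → G → ℤ)
    (hn : ∀ y : G, (if y = 1 then m else 0) =
      ∑ g : G, ∑ x : G, n g x * (if (orderOf g).Prime then
        ∑ i ∈ range (orderOf g), (if g ^ i * x = y then (1 : ℤ) else 0) else 0))
    (w : G → R) (hw : IsSol w) : (m : R) * w 1 = 0 := by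
  have h1 : (m : R) * w 1 = ∑ y : G, (((if y = 1 then m else 0 : ℤ)) : R) * w y := by
    rw [Finset.sum_eq_single 1]
    · simp
    · intro y _ hy
      simp [hy]
    · intro h
      exact absurd (Finset.mem_univ _) h
  rw [h1]
  simp only [hn]
  push_cast
  simp only [Finset.sum_mul]
  rw [Finset.sum_comm]
  refine Finset.sum_eq_zero fun g _ => ?_
  rw [Finset.sum_comm]
  refine Finset.sum_eq_zero fun x _ => ?_
  by_cases hg : (orderOf g).Prime
  · simp only [if_pos hg]
    have h2 : ∀ y : G, (n g x : R) * (∑ i ∈ range (orderOf g), (if g ^ i * x = y then (1 : R) else 0)) * w y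
        = (n g x : R) * ∑ i ∈ range (orderOf g), (if g ^ i * x = y then w y else 0) := by
      intro y
      rw [mul_assoc, Finset.sum_mul]
      congr 1
      refine Finset.sum_congr rfl fun i _ => ?_
      split_ifs <;> simp
    simp only [h2]
    rw [← Finset.mul_sum, Finset.sum_comm]
    have h3 : ∀ i, ∑ y : G, (if g ^ i * x = y then w y else 0) = w (g ^ i * x) := by
      intro i
      simp
    simp only [h3]
    rw [hw g hg x, mul_zero]
  · simp [hg]

end Cfsg.Agent.Lib.Helper50.FCL
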