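import Cfsg.Agent.Lib.Helper50.FCL.Base
import Cfsg.Agent.Lib.Helper50.FCL.GEN

set_option autoImplicit false

namespace Cfsg.Agent.Lib.Helper50.FCL

open Finset

/-- [M] matrix form of [A].
PROOF. U := Additive V; `letI := AddCommGroup.zmodModule (n := q) (G := U) (fun v => hq v.toMul)` (Module (ZMod q) U); U finite so FiniteDimensional
(`Module.Finite.of_finite`/`FiniteDimensional.of_finite`...).  R : Representation (ZMod q) G U,
R g := `AddMonoidHom.toZModLinearMap q (MonoidHom.toAdditive (ρ g).toMonoidHom)` (map_one, map_mul by ext).  Apply [GEN]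
(import Cfsg.Agent.Lib.Helper50.FCL.GEN): σ, e.  d = finrank > 0 since U nontrivial (`Module.finrank_pos`).
If (σ g).mulVec v = v put u = e.symm v: e (R g u) = e u, so ρ g u = u, u = 0, v = 0. -/
theorem exists_matrix_rep {G : Type*} [Group G] (q : ℕ) [Fact q.Prime] (V : Type) [CommGroup V]
    [Finite V] [Nontrivial V] (ρ : G →* MulAut V) (hq : ∀ v : V, v ^ q = 1)
    (hfpf : ∀ g : G, g ≠ 1 → ∀ v : V, ρ g v = v → v = 1) :
    ∃ (d : ℕ) (σ : G →* GL (Fin d) (ZMod q)), 0 < d ∧ ∀ g : G, g ≠ 1 → ∀ v : Fin d → ZMod q,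
      ((σ g : GL (Fin d) (ZMod q)) : Matrix (Fin d) (Fin d) (ZMod q)).mulVec v = v → v = 0 := by
  letI : Module (ZMod q) (Additive V) :=
    AddCommGroup.zmodModule (n := q) (G := Additive V) (fun v => hq v.toMul)
  haveI : Module.Finite (ZMod q) (Additive V) := Module.Finite.of_finite
  let R : Representation (ZMod q) G (Additive V) :=
    { toFun := fun g => AddMonoidHom.toZModLinearMap q (MonoidHom.toAdditive (ρ g).toMonoidHom)
      map_one' := by
        ext v
        show Additive.ofMul (ρ 1 v.toMul) = v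
        rw [map_one]; rfl
      map_mul' := by
        intro a b
        ext v
        show Additive.ofMul (ρ (a * b) v.toMul) = Additive.ofMul (ρ a (ρ b v.toMul))
        rw [map_mul]; rfl }
  obtain ⟨σ, e, he⟩ := exists_matrix_of_rep R
  refine ⟨_, σ, Module.finrank_pos, ?_⟩
  intro g hg v hv
  have h1 := he g (e.symm v)
  rw [LinearEquiv.apply_symm_apply, hv] at h1
  have h2 : R g (e.symm v) = e.symm v := by
    apply e.injective
    rw [h1, LinearEquiv.apply_symm_apply]
  have h3 : ρ g (e.symm v).toMul = (e.symm v).toMul := congrArg Additive.toMul h2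
  have h4 : (e.symm v).toMul = 1 := hfpf g hg _ h3
  have h5 : e.symm v = 0 := congrArg Additive.ofMul h4
  have h6 := congrArg e h5
  rwa [LinearEquiv.apply_symm_apply, map_zero] at h6

end Cfsg.Agent.Lib.Helper50.FCL
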