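import Cfsg.Agent.Lib.Helper50.FCL.Base

set_option autoImplicit false

namespace Cfsg.Agent.Lib.Helper50.FCL

open Finset

/-- [MIN] a nonzero finite-dimensional representation has a minimal nonzero invariant subspace.
PROOF. Strong induction on finrank of an invariant nonzero subspace (start with ⊤), or: the set of invariant nonzero
subspaces is nonempty, take one of minimal finrank (`Nat.find`/`WellFounded.min` via `Function.argmin`..); a smaller invariant W ≤ U', W ≠ ⊥ has
finrank W ≥ finrank U' so W = U' (`Submodule.eq_of_le_of_finrank_le`). -/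
theorem exists_minimal_invariant {K G U : Type*} [Field K] [Group G] [AddCommGroup U] [Module K U]
    [FiniteDimensional K U] [Nontrivial U] (R : Representation K G U) :
    ∃ U' : Submodule K U, U' ≠ ⊥ ∧ (∀ g : G, ∀ u ∈ U', R g u ∈ U') ∧
      ∀ W : Submodule K U, W ≤ U' → (∀ g : G, ∀ u ∈ W, R g u ∈ W) → W = ⊥ ∨ W = U' := by
  classical
  have hex : ∃ n : ℕ, ∃ U' : Submodule K U, U' ≠ ⊥ ∧ (∀ g : G, ∀ u ∈ U', R g u ∈ U') ∧
      Module.finrank K U' = n :=
    ⟨_, ⊤, top_ne_bot, fun _ _ _ => Submodule.mem_top, rfl⟩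
  obtain ⟨U', h1, h2, h3⟩ := Nat.find_spec hex
  refine ⟨U', h1, h2, ?_⟩
  intro W hW hinv
  by_cases hb : W = ⊥
  · exact Or.inl hb
  · right
    have h4 : Nat.find hex ≤ Module.finrank K W := Nat.find_min' hex ⟨W, hb, hinv, rfl⟩
    exact Submodule.eq_of_le_of_finrank_le hW (by rw [h3]; exact h4)

end Cfsg.Agent.Lib.Helper50.FCL
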