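import Cfsg.Agent.Lib.Helper50.FCL.Base
import Cfsg.Agent.Lib.Helper50.FCL.MIN
import Cfsg.Agent.Lib.Helper50.FCL.GEN

set_option autoImplicit false

namespace Cfsg.Agent.Lib.Helper50.FCL

open Finset

/-- [MAT] from a fixed-point-free representation to an irreducible fixed-point-free matrix representation.
PROOF. [MIN] (import Cfsg.Agent.Lib.Helper50.FCL.MIN) gives U'.  R' := R.subrepresentation U' (fun g u hu => ..) : Representation K G U'
(`Representation.subrepresentation`), (R' g u : U) = R g u.  [GEN] (import ...FCL.GEN) for R': σ, e, n = finrank U' > 0 (U' ≠ ⊥).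
fpf: (σ g).mulVec v = v, u := e.symm v ⇒ R' g u = u ⇒ u = 0.  Injective: σ g = 1 ⇒ every v fixed ⇒ (n > 0, take v ≠ 0) g = 1
(`injective_iff_map_eq_one`).  Irreducible: for W ≤ (Fin n → K) invariant let W' := (W.comap e).map U'.subtype ≤ U', invariant; W' = ⊥ ⇒ W = ⊥,
W' = U' ⇒ W = ⊤ (e bijective, subtype injective). -/
theorem exists_irreducible_matrix_rep {K G U : Type*} [Field K] [Group G] [AddCommGroup U] [Module K U]
    [FiniteDimensional K U] [Nontrivial U] (R : Representation K G U)
    (hfpf : ∀ g : G, g ≠ 1 → ∀ u : U, R g u = u → u = 0) :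
    ∃ (n : ℕ) (ρ : G →* GL (Fin n) K), 0 < n ∧ Function.Injective ρ ∧
      (∀ W : Submodule K (Fin n → K),
        (∀ g : G, ∀ w ∈ W, ((ρ g : GL (Fin n) K) : Matrix (Fin n) (Fin n) K).mulVec w ∈ W) → W = ⊥ ∨ W = ⊤) ∧
      ∀ g : G, g ≠ 1 → ∀ v : Fin n → K,
        ((ρ g : GL (Fin n) K) : Matrix (Fin n) (Fin n) K).mulVec v = v → v = 0 := by
  obtain ⟨U', hne, hinv, hmin⟩ := exists_minimal_invariant R
  let R' : Representation K G U' := R.subrepresentation U' (fun g u hu => hinv g u hu)
  have hR' : ∀ (g : G) (u : U'), ((R' g u : U') : U) = R g u := fun g u => rfl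
  obtain ⟨σ, e, he⟩ := exists_matrix_of_rep R'
  have hn : 0 < Module.finrank K U' := by
    haveI : Nontrivial U' := (Submodule.nontrivial_iff_ne_bot).2 hne
    exact Module.finrank_pos
  have hfix : ∀ g : G, g ≠ 1 → ∀ v : Fin (Module.finrank K U') → K,
      ((σ g : GL (Fin (Module.finrank K U')) K) : Matrix _ _ K).mulVec v = v → v = 0 := by
    intro g hg v hv
    have h1 : e (R' g (e.symm v)) = e (e.symm v) := by
      rw [he, e.apply_symm_apply, hv]
    have h2 : R' g (e.symm v) = e.symm v := e.injective h1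
    have h3 : R g ((e.symm v : U') : U) = ((e.symm v : U') : U) := by
      rw [← hR', h2]
    have h4 : ((e.symm v : U') : U) = 0 := hfpf g hg _ h3
    have h5 : e.symm v = 0 := Subtype.ext h4
    have h6 : v = e (e.symm v) := (e.apply_symm_apply v).symm
    rw [h6, h5, map_zero]
  refine ⟨Module.finrank K U', σ, hn, ?_, ?_, hfix⟩
  · rw [injective_iff_map_eq_one]
    intro g hg1
    by_contra hne1
    have h1 := hfix g hne1 (fun _ => 1) (by rw [hg1]; simp)
    have h2 := congrFun h1 ⟨0, hn⟩
    simp at h2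
  · intro W hW
    have hW' : ∀ g : G, ∀ u ∈ (W.comap e.toLinearMap).map U'.subtype,
        R g u ∈ (W.comap e.toLinearMap).map U'.subtype := by
      rintro g _ ⟨u', hu', rfl⟩
      refine ⟨R' g u', ?_, rfl⟩
      show e (R' g u') ∈ W
      rw [he]
      exact hW g _ hu'
    rcases hmin _ (Submodule.map_subtype_le _ _) hW' with h | h
    · left
      rw [Submodule.eq_bot_iff]
      intro w hw
      have h1 : ((e.symm w : U') : U) ∈ (W.comap e.toLinearMap).map U'.subtype := by
        refine ⟨e.symm w, ?_, rfl⟩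
        show e (e.symm w) ∈ W
        rw [e.apply_symm_apply]
        exact hw
      rw [h, Submodule.mem_bot] at h1
      have h5 : e.symm w = 0 := Subtype.ext h1
      have h6 : w = e (e.symm w) := (e.apply_symm_apply w).symm
      rw [h6, h5, map_zero]
    · right
      rw [Submodule.eq_top_iff']
      intro w
      have h1 : ((e.symm w : U') : U) ∈ (W.comap e.toLinearMap).map U'.subtype := by
        rw [h]
        exact (e.symm w).2
      obtain ⟨u'', hu'', hu⟩ := h1
      have h2 : u'' = e.symm w := Subtype.ext hu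
      have h3 : e u'' ∈ W := hu''
      rw [h2, e.apply_symm_apply] at h3
      exact h3

end Cfsg.Agent.Lib.Helper50.FCL
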