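import Cfsg.Agent.Lib.Helper50.FCL.Base

set_option autoImplicit false

namespace Cfsg.Agent.Lib.Helper50.FCL

open Finset

theorem NILa_exists_mul (q : ℕ) [Fact q.Prime] (k : ℕ) (a : ZMod (q ^ (k + 1)))
    (h : red q k a = 0) : ∃ b : ZMod (q ^ (k + 1)), a = (q : ZMod (q ^ (k + 1))) * b := by
  have hq : q.Prime := Fact.out
  have : NeZero (q ^ (k + 1)) := ⟨pow_ne_zero _ hq.ne_zero⟩
  have ha : ((a.val : ℕ) : ZMod (q ^ (k + 1))) = a := ZMod.natCast_zmod_val a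
  rw [← ha, map_natCast, ZMod.natCast_eq_zero_iff] at h
  obtain ⟨c, hc⟩ := h
  refine ⟨(c : ZMod (q ^ (k + 1))), ?_⟩
  rw [← ha, hc, Nat.cast_mul]

theorem NILa_exists_smul (q : ℕ) [Fact q.Prime] (k d : ℕ)
    (S : Matrix (Fin d) (Fin d) (ZMod (q ^ (k + 1)))) (hS0 : S.map (red q k) = 0) :
    ∃ T : Matrix (Fin d) (Fin d) (ZMod (q ^ (k + 1))), S = (q : ZMod (q ^ (k + 1))) • T := by
  have h : ∀ i j, ∃ b : ZMod (q ^ (k + 1)), S i j = (q : ZMod (q ^ (k + 1))) * b := by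
    intro i j
    apply NILa_exists_mul
    have := congrFun (congrFun hS0 i) j
    simpa using this
  choose T hT using h
  refine ⟨Matrix.of T, ?_⟩
  ext i j
  rw [hT i j]
  rfl

/-- [NILa] PROOF. Every entry of S is killed by `red q k`, so is a multiple of (q : ZMod (q^(k+1))) (see [KER]):
S = (q : ZMod _) • T.  By induction S^(j+1) = ℓ^j • S (from hS2), and S^(k+1) = q^(k+1) • T^(k+1) = 0
(`smul_pow`, `ZMod.natCast_self`).  So ℓ^k • S = 0; (ℓ^k : ZMod (q^(k+1))) is a unit (`ZMod.isUnit_iff_coprime`/`ZMod.unitOfCoprime`,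
`Nat.Coprime.pow`), hence S = 0. -/
theorem matrix_eq_zero_of_sq (q : ℕ) [Fact q.Prime] (k d ℓ : ℕ) (hℓ : ℓ.Coprime q)
    (S : Matrix (Fin d) (Fin d) (ZMod (q ^ (k + 1)))) (hS2 : S * S = ℓ • S)
    (hS0 : S.map (red q k) = 0) : S = 0 := by
  obtain ⟨T, hT⟩ := NILa_exists_smul q k d S hS0
  have hpow : ∀ j : ℕ, S ^ (j + 1) = (ℓ ^ j) • S := by
    intro j
    induction j with
    | zero => simp
    | succ j ih =>
      rw [pow_succ S (j + 1), ih, smul_mul_assoc, hS2, smul_smul, pow_succ ℓ j]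
  have h0 : S ^ (k + 1) = 0 := by
    rw [hT, smul_pow, ← Nat.cast_pow, ZMod.natCast_self, zero_smul]
  rw [hpow k] at h0
  have hc : (ℓ ^ k).Coprime (q ^ (k + 1)) := Nat.Coprime.pow _ _ hℓ
  have h1 : ((ZMod.unitOfCoprime (ℓ ^ k) hc : (ZMod (q ^ (k + 1)))ˣ) : ZMod (q ^ (k + 1))) • S = 0 := by
    rw [ZMod.coe_unitOfCoprime, Nat.cast_smul_eq_nsmul, h0]
  have h2 : (((ZMod.unitOfCoprime (ℓ ^ k) hc)⁻¹ : (ZMod (q ^ (k + 1)))ˣ) : ZMod (q ^ (k + 1))) •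
      (((ZMod.unitOfCoprime (ℓ ^ k) hc : (ZMod (q ^ (k + 1)))ˣ) : ZMod (q ^ (k + 1))) • S) = 0 := by
    rw [h1, smul_zero]
  rwa [smul_smul, Units.inv_mul, one_smul] at h2

end Cfsg.Agent.Lib.Helper50.FCL
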