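import Cfsg.Agent.Lib.Helper50.FCL.Base
import Cfsg.Agent.Lib.Helper50.FCL.NILa

set_option autoImplicit false

namespace Cfsg.Agent.Lib.Helper50.FCL

open Finset

theorem NILb_geom {R : Type*} [Ring R] (a : R) (ℓ : ℕ) (h : a ^ ℓ = 1) :
    a * (∑ i ∈ range ℓ, a ^ i) = ∑ i ∈ range ℓ, a ^ i := by
  rw [Finset.mul_sum]
  have h0 : ∑ i ∈ range ℓ, a * a ^ i = ∑ i ∈ range ℓ, a ^ (i + 1) :=
    Finset.sum_congr rfl (fun i _ => (pow_succ' a i).symm)
  rw [h0]
  have h1 := Finset.sum_range_succ (fun i => a ^ i) ℓ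
  have h2 := Finset.sum_range_succ' (fun i => a ^ i) ℓ
  rw [h1, h, pow_zero] at h2
  exact (add_right_cancel h2).symm

theorem NILb_sq {R : Type*} [Ring R] (a : R) (ℓ : ℕ) (h : a ^ ℓ = 1) :
    (∑ i ∈ range ℓ, a ^ i) * (∑ i ∈ range ℓ, a ^ i) = ℓ • ∑ i ∈ range ℓ, a ^ i := by
  have h1 : ∀ i : ℕ, a ^ i * (∑ i ∈ range ℓ, a ^ i) = ∑ i ∈ range ℓ, a ^ i := by
    intro i
    induction i with
    | zero => simp
    | succ i ih => rw [pow_succ, mul_assoc, NILb_geom a ℓ h, ih]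
  rw [Finset.sum_mul, Finset.sum_congr rfl (fun i _ => h1 i), Finset.sum_const, Finset.card_range]

/-- [NILb] PROOF. ℓ := orderOf g, a := (τ g : Matrix), S = ∑_{i<ℓ} a^i (map_pow, Units.val_pow_eq_pow_val), a^ℓ = 1.
a * S = S (shift the sum: `Finset.sum_range_succ'`/`sum_range_succ`, a^ℓ = a^0), so a^i * S = S and S * S = ℓ • S.
S.map red = ∑ (ā)^i with ā = (redGL q k d (τ g) : Matrix) (`RingHom.mapMatrix`, map_sum, map_pow); ā * S̄ = S̄ likewise, so every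
column S̄.mulVec v is fixed by ā, hence 0 by hfpf (g ≠ 1 as its order is prime); S̄ = 0 (`Matrix.ext`, mulVec on `Pi.single j 1`).
ℓ ∣ card G (`orderOf_dvd_natCard`) so ℓ is prime to q.  Conclude by [NILa]
(import Cfsg.Agent.Lib.Helper50.FCL.NILa). -/
theorem norm_eq_zero {G : Type*} [Group G] [Finite G] (q : ℕ) [Fact q.Prime] (k d : ℕ)
    (hG : (Nat.card G).Coprime q) (τ : G →* GL (Fin d) (ZMod (q ^ (k + 1))))
    (hfpf : ∀ g : G, g ≠ 1 → ∀ v : Fin d → ZMod q,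
      ((redGL q k d (τ g) : GL (Fin d) (ZMod q)) : Matrix (Fin d) (Fin d) (ZMod q)).mulVec v = v → v = 0)
    (g : G) (hg : (orderOf g).Prime) :
    ∑ i ∈ range (orderOf g),
      ((τ (g ^ i) : GL (Fin d) (ZMod (q ^ (k + 1)))) : Matrix (Fin d) (Fin d) (ZMod (q ^ (k + 1)))) = 0 := by
  have hpow : ∀ i : ℕ, ((τ (g ^ i) : GL (Fin d) (ZMod (q ^ (k + 1)))) :
      Matrix (Fin d) (Fin d) (ZMod (q ^ (k + 1)))) =
      ((τ g : GL (Fin d) (ZMod (q ^ (k + 1)))) : Matrix (Fin d) (Fin d) (ZMod (q ^ (k + 1)))) ^ i := by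
    intro i
    rw [map_pow, Units.val_pow_eq_pow_val]
  rw [Finset.sum_congr rfl (fun i _ => hpow i)]
  have haℓ : ((τ g : GL (Fin d) (ZMod (q ^ (k + 1)))) :
      Matrix (Fin d) (Fin d) (ZMod (q ^ (k + 1)))) ^ (orderOf g) = 1 := by
    rw [← hpow, pow_orderOf_eq_one, map_one]
    rfl
  generalize ha : ((τ g : GL (Fin d) (ZMod (q ^ (k + 1)))) :
      Matrix (Fin d) (Fin d) (ZMod (q ^ (k + 1)))) = a at *
  have hg1 : g ≠ 1 := by
    rintro rfl
    rw [orderOf_one] at hg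
    exact Nat.not_prime_one hg
  have hbar : ((redGL q k d (τ g) : GL (Fin d) (ZMod q)) : Matrix (Fin d) (Fin d) (ZMod q)) =
      (RingHom.mapMatrix (red q k)) a := by
    rw [← ha]
    rfl
  apply matrix_eq_zero_of_sq q k d (orderOf g)
    (Nat.Coprime.coprime_dvd_left (orderOf_dvd_natCard g) hG) _ (NILb_sq a _ haℓ)
  have hmap : (∑ i ∈ range (orderOf g), a ^ i).map (red q k) =
      ∑ i ∈ range (orderOf g), ((RingHom.mapMatrix (red q k)) a) ^ i := by
    have : (∑ i ∈ range (orderOf g), a ^ i).map (red q k) =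
        (RingHom.mapMatrix (red q k)) (∑ i ∈ range (orderOf g), a ^ i) := rfl
    rw [this, map_sum]
    exact Finset.sum_congr rfl (fun i _ => map_pow _ _ _)
  rw [hmap]
  have hbℓ : ((RingHom.mapMatrix (red q k)) a) ^ (orderOf g) = 1 := by
    rw [← map_pow, haℓ, map_one]
  have hfix := NILb_geom _ _ hbℓ
  have hz : ∀ v : Fin d → ZMod q,
      (∑ i ∈ range (orderOf g), ((RingHom.mapMatrix (red q k)) a) ^ i).mulVec v = 0 := by
    intro v
    apply hfpf g hg1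
    rw [hbar, Matrix.mulVec_mulVec, hfix]
  ext i j
  have := congrFun (hz (Pi.single j 1)) i
  simpa [Matrix.mulVec_single_one] using this

end Cfsg.Agent.Lib.Helper50.FCL
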