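import Cfsg.Agent.Lib.Helper50.FCL.Base

set_option autoImplicit false

namespace Cfsg.Agent.Lib.Helper50.FCL

open Finset

/-- [PROD] the product of two solutions is a solution on the direct product of groups of coprime
orders. -/
theorem isSol_prod {A B R : Type*} [Group A] [Finite A] [Group B] [Finite B] [CommRing R]
    (hcop : (Nat.card A).Coprime (Nat.card B)) (wA : A → R) (hA : IsSol wA) (wB : B → R) (hB : IsSol wB) :
    IsSol (fun x : A × B => wA x.1 * wB x.2) := by
  rintro ⟨a, b⟩ hg ⟨x, y⟩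
  set ℓ := orderOf ((a, b) : A × B) with hℓ
  have hlcm : ℓ = Nat.lcm (orderOf a) (orderOf b) := Prod.orderOf (a, b)
  have ha : orderOf a ∣ ℓ := hlcm ▸ Nat.dvd_lcm_left _ _
  have hb : orderOf b ∣ ℓ := hlcm ▸ Nat.dvd_lcm_right _ _
  simp only [Prod.pow_mk, Prod.mk_mul_mk]
  rcases (Nat.dvd_prime hg).mp ha with ha1 | ha1
  · -- a = 1
    have ha' : a = 1 := orderOf_eq_one_iff.mp ha1
    have hb' : orderOf b = ℓ := by rw [hlcm, ha1, Nat.lcm_one_left]
    subst ha'
    simp only [one_pow, one_mul]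
    rw [← Finset.mul_sum, ← hb', hB b (hb' ▸ hg) y, mul_zero]
  · rcases (Nat.dvd_prime hg).mp hb with hb1 | hb1
    · have hb' : b = 1 := orderOf_eq_one_iff.mp hb1
      subst hb'
      simp only [one_pow, one_mul]
      rw [← Finset.sum_mul, ← ha1, hA a (ha1 ▸ hg) x, zero_mul]
    · exfalso
      have h1 : ℓ ∣ Nat.card A := ha1 ▸ orderOf_dvd_natCard a
      have h2 : ℓ ∣ Nat.card B := hb1 ▸ orderOf_dvd_natCard b
      have h3 := Nat.dvd_gcd h1 h2
      rw [hcop] at h3
      exact hg.one_lt.ne' (Nat.dvd_one.mp h3)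

end Cfsg.Agent.Lib.Helper50.FCL
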