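import Cfsg.Agent.Lib.Helper50.FCL.Base

set_option autoImplicit false

namespace Cfsg.Agent.Lib.Helper50.FCL

open Finset

/-- [RED] a prime `r` not dividing the two orders modulo which both integer vectors stay nonzero. -/
theorem exists_good_prime {A B : Type*} [Group A] [Finite A] [Group B] [Finite B]
    (wA : A → ℤ) (hA : wA ≠ 0) (wB : B → ℤ) (hB : wB ≠ 0) :
    ∃ r : ℕ, r.Prime ∧ ¬ r ∣ Nat.card A ∧ ¬ r ∣ Nat.card B ∧
      (∃ a, ((wA a : ℤ) : ZMod r) ≠ 0) ∧ (∃ b, ((wB b : ℤ) : ZMod r) ≠ 0) := by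
  obtain ⟨a, ha⟩ : ∃ a, wA a ≠ 0 := by
    by_contra h
    push Not at h
    exact hA (funext h)
  obtain ⟨b, hb⟩ : ∃ b, wB b ≠ 0 := by
    by_contra h
    push Not at h
    exact hB (funext h)
  obtain ⟨r, hr, hp⟩ := Nat.exists_infinite_primes
    (Nat.card A + Nat.card B + (wA a).natAbs + (wB b).natAbs + 1)
  refine ⟨r, hp, ?_, ?_, ⟨a, ?_⟩, ⟨b, ?_⟩⟩
  · intro h
    have := Nat.le_of_dvd Nat.card_pos h
    omega
  · intro h
    have := Nat.le_of_dvd Nat.card_pos h
    omega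
  · intro h
    rw [ZMod.intCast_zmod_eq_zero_iff_dvd] at h
    have h1 : r ∣ (wA a).natAbs := by
      have := Int.natAbs_dvd_natAbs.mpr h
      simpa using this
    have := Nat.le_of_dvd (Int.natAbs_pos.mpr ha) h1
    omega
  · intro h
    rw [ZMod.intCast_zmod_eq_zero_iff_dvd] at h
    have h1 : r ∣ (wB b).natAbs := by
      have := Int.natAbs_dvd_natAbs.mpr h
      simpa using this
    have := Nat.le_of_dvd (Int.natAbs_pos.mpr hb) h1
    omega

end Cfsg.Agent.Lib.Helper50.FCL
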