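import Cfsg.Agent.Lib.Helper50.FCL.Base

set_option autoImplicit false

namespace Cfsg.Agent.Lib.Helper50.FCL

open Finset

theorem SUR_red_surjective (q k : ℕ) : Function.Surjective (red q k) :=
  ZMod.castHom_surjective _

theorem SUR_isUnit (q : ℕ) [Fact q.Prime] (k : ℕ) (a : ZMod (q ^ (k + 1)))
    (h : IsUnit (red q k a)) : IsUnit a := by
  have hq : q.Prime := Fact.out
  have : NeZero (q ^ (k + 1)) := ⟨pow_ne_zero _ hq.ne_zero⟩
  have ha : ((a.val : ℕ) : ZMod (q ^ (k + 1))) = a := ZMod.natCast_zmod_val a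
  rw [← ha, map_natCast, ZMod.isUnit_iff_coprime] at h
  rw [← ha, ZMod.isUnit_iff_coprime]
  exact Nat.Coprime.pow_right _ h

/-- [SUR] `GL_d(ℤ/q^(k+1)) → GL_d(ℤ/q)` is onto.
PROOF. `red q k` is surjective (`ZMod.castHom_surjective`/`ZMod.ringHom_surjective`).  Given g, choose entrywise a matrix
X with `X.map (red q k) = g`.  det X maps to det g (`RingHom.map_det`), a unit of ZMod q; an element a of ZMod (q^(k+1))
whose image in ZMod q is a unit is a unit (write a = (n : ZMod _) with n : ℕ (`ZMod.natCast_zmod_surjective`/`ZMod.natCast_self_eq_zero`), `ZMod.isUnit_iff_coprime`: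
n coprime to q ⇒ coprime to q^(k+1)).  So X is invertible (`Matrix.isUnit_iff_isUnit_det`); the unit maps to g (`Units.ext`). -/
theorem redGL_surjective (q : ℕ) [Fact q.Prime] (k d : ℕ) : Function.Surjective (redGL q k d) := by
  intro g
  have h : ∀ i j, ∃ a : ZMod (q ^ (k + 1)), red q k a = (g : Matrix (Fin d) (Fin d) (ZMod q)) i j :=
    fun i j => SUR_red_surjective q k _
  choose X hX using h
  have hXg : (Matrix.of X).map (red q k) = (g : Matrix (Fin d) (Fin d) (ZMod q)) := by
    ext i j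
    exact hX i j
  have hdet : red q k (Matrix.of X).det = (g : Matrix (Fin d) (Fin d) (ZMod q)).det := by
    rw [RingHom.map_det, RingHom.mapMatrix_apply, hXg]
  have hu : IsUnit (Matrix.of X).det := by
    apply SUR_isUnit q k
    rw [hdet]
    exact (Matrix.isUnit_iff_isUnit_det _).1 g.isUnit
  obtain ⟨u, hu'⟩ := (Matrix.isUnit_iff_isUnit_det _).2 hu
  refine ⟨u, ?_⟩
  apply Units.ext
  show ((u : Matrix (Fin d) (Fin d) (ZMod (q ^ (k + 1))))).map (red q k) = _
  rw [hu', hXg]

end Cfsg.Agent.Lib.Helper50.FCL
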