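import Cfsg.Agent.Lib.Helper50.FCL.Base

set_option autoImplicit false

namespace Cfsg.Agent.Lib.Helper50.FCL

open Finset

/-- [SZ] lifting homomorphisms through a surjection with `q`-group kernel (Schur–Zassenhaus). -/
theorem exists_lift {Γ Q G : Type*} [Group Γ] [Group Q] [Group G] [Finite Γ] [Finite G]
    (q : ℕ) [Fact q.Prime] (π : Γ →* Q) (hπ : Function.Surjective π) (hker : IsPGroup q π.ker)
    (hG : (Nat.card G).Coprime q) (σ : G →* Q) : ∃ τ : G →* Γ, π.comp τ = σ := by
  classical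
  let P : Subgroup (Γ × G) :=
    MonoidHom.eqLocus (π.comp (MonoidHom.fst Γ G)) (σ.comp (MonoidHom.snd Γ G))
  have hP : ∀ x : P, π x.1.1 = σ x.1.2 := fun x => x.2
  let pr2 : P →* G := (MonoidHom.snd Γ G).comp P.subtype
  have hsurj : Function.Surjective pr2 := by
    intro g
    obtain ⟨γ, hγ⟩ := hπ (σ g)
    exact ⟨⟨(γ, g), hγ⟩, rfl⟩
  have hNp : IsPGroup q pr2.ker := by
    let f : pr2.ker →* π.ker :=
      { toFun := fun x => ⟨x.1.1.1, by
          have h1 : x.1.1.2 = 1 := x.2
          have h2 := hP x.1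
          rw [h1, map_one] at h2
          exact h2⟩
        map_one' := rfl
        map_mul' := fun _ _ => rfl }
    refine hker.of_injective f ?_
    intro x y hxy
    have h1 : x.1.1.1 = y.1.1.1 := congrArg (fun z : π.ker => (z : Γ)) hxy
    have h2 : x.1.1.2 = 1 := x.2
    have h3 : y.1.1.2 = 1 := y.2
    apply Subtype.ext
    apply Subtype.ext
    exact Prod.ext h1 (h2.trans h3.symm)
  have hcop : Nat.Coprime (Nat.card pr2.ker) pr2.ker.index := by
    obtain ⟨n, hn⟩ := IsPGroup.iff_card.mp hNp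
    rw [hn, Subgroup.index_ker, MonoidHom.range_eq_top.mpr hsurj, Subgroup.card_top]
    exact (Nat.Coprime.pow_right n hG).symm
  obtain ⟨H, hH⟩ := Subgroup.exists_right_complement'_of_coprime hcop
  let r : H →* G := pr2.comp H.subtype
  have hr : Function.Bijective r := by
    constructor
    · rw [injective_iff_map_eq_one]
      intro x hx
      have h1 : (x : P) ∈ pr2.ker ⊓ H := ⟨hx, x.2⟩
      rw [hH.disjoint.eq_bot] at h1
      exact Subtype.ext h1
    · intro g
      obtain ⟨p, hp⟩ := hsurj g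
      obtain ⟨⟨n, h⟩, hnh⟩ := hH.2 p
      refine ⟨h, ?_⟩
      have h1 : pr2 (n : P) = 1 := n.2
      have h2 : (n : P) * (h : P) = p := hnh
      change pr2 (h : P) = g
      rw [← hp, ← h2, map_mul, h1, one_mul]
  let e : H ≃* G := MulEquiv.ofBijective r hr
  refine ⟨((MonoidHom.fst Γ G).comp (P.subtype.comp H.subtype)).comp e.symm.toMonoidHom, ?_⟩
  ext g
  have h1 := hP (e.symm g : P)
  have h2 : ((e.symm g : P) : Γ × G).2 = g := e.apply_symm_apply g
  rw [h2] at h1
  exact h1

end Cfsg.Agent.Lib.Helper50.FCL
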